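import Mathlib
import Cfsg.Agent.Lib.Helper48.X27.Defs

/-!
# Project X27 (S5998), package [X27-CENT]

An element `y` of the normalizer of the standard extraspecial group `R` of order 27 with
`y ^ r` scalar, `r ≥ 5` prime, is scalar.
-/

set_option autoImplicit false

open scoped MatrixGroups

namespace Cfsg.Agent.Lib.Helper42.X27

open Cfsg.Agent.Lib.Helper48.X27

universe u

theorem x27_fix_arith {r c : ℕ} (hr : r.Prime) (hr5 : 5 ≤ r) (hc : c ∣ 27) (hc1 : c ≠ 1)
    (hmod : 27 ≡ c [MOD r]) : c = 27 := by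
  have hle : c ≤ 27 := Nat.le_of_dvd (by norm_num) hc
  have hd : r ∣ 27 - c := (Nat.modEq_iff_dvd' hle).mp hmod.symm
  by_contra hne
  have hpos : 0 < 27 - c := by omega
  have hr8 : r ≤ 27 - c := Nat.le_of_dvd hpos hd
  have hc0 : c ≠ 0 := by
    rintro rfl
    simp at hc
  have hc' : c = 3 ∨ c = 9 := by
    have hmemd : c ∈ Nat.divisors 27 := Nat.mem_divisors.mpr ⟨hc, by norm_num⟩
    have h27 : Nat.divisors 27 = {1, 3, 9, 27} := by decide
    rw [h27] at hmemd
    simp only [Finset.mem_insert, Finset.mem_singleton] at hmemd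
    omega
  rcases hc' with rfl | rfl
  · have h24 : r ∣ 2 ^ 3 * 3 := hd
    rcases (Nat.Prime.dvd_mul hr).mp h24 with h | h
    · have := Nat.le_of_dvd (by norm_num) (hr.dvd_of_dvd_pow h)
      omega
    · have := Nat.le_of_dvd (by norm_num) h
      omega
  · have h18 : r ∣ 2 * 3 ^ 2 := hd
    rcases (Nat.Prime.dvd_mul hr).mp h18 with h | h
    · have := Nat.le_of_dvd (by norm_num) h
      omega
    · have := Nat.le_of_dvd (by norm_num) (hr.dvd_of_dvd_pow h)
      omega

section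
variable {F : Type u} [Field F]

theorem matA_eq_diagonal (ω : F) : matA ω = Matrix.diagonal ![1, ω, ω ^ 2] := by
  ext i j
  fin_cases i <;> fin_cases j <;> simp [matA]

/-- a matrix commuting with `A_ω` and `B` is scalar -/
theorem scalar_of_comm_AB {ω : F} (hω1 : ω ≠ 1) (hω3 : ω ^ 3 = 1) (N : Matrix (Fin 3) (Fin 3) F)
    (hA : N * matA ω = matA ω * N) (hB : N * matB = matB * N) : ∃ z : F, N = z • 1 := by
  have hω0 : ω ≠ 0 := by
    rintro rfl
    simp at hω3
  have h2 : ω ^ 2 ≠ 1 := by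
    intro h
    apply hω1
    have : ω ^ 3 = ω := by rw [pow_succ, h, one_mul]
    rw [← this, hω3]
  have h12 : ω ^ 2 ≠ ω := by
    intro h
    apply hω1
    have : ω * ω = ω * 1 := by rw [mul_one, ← sq, h]
    exact mul_left_cancel₀ hω0 this
  rw [matA_eq_diagonal] at hA
  have e : ∀ i j, N i j * (![1, ω, ω ^ 2] : Fin 3 → F) j = (![1, ω, ω ^ 2] : Fin 3 → F) i * N i j := by
    intro i j
    have := congrFun (congrFun hA i) j
    rw [Matrix.mul_diagonal, Matrix.diagonal_mul] at this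
    exact this
  have v0 : (![1, ω, ω ^ 2] : Fin 3 → F) 0 = 1 := rfl
  have v1 : (![1, ω, ω ^ 2] : Fin 3 → F) 1 = ω := rfl
  have v2 : (![1, ω, ω ^ 2] : Fin 3 → F) 2 = ω ^ 2 := rfl
  have e01 : N 0 1 = 0 := by
    have h := e 0 1
    rw [v0, v1] at h
    have h' : N 0 1 * (ω - 1) = 0 := by linear_combination h
    exact (mul_eq_zero.mp h').resolve_right (sub_ne_zero.mpr hω1)
  have e02 : N 0 2 = 0 := by
    have h := e 0 2
    rw [v0, v2] at h
    have h' : N 0 2 * (ω ^ 2 - 1) = 0 := by linear_combination h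
    exact (mul_eq_zero.mp h').resolve_right (sub_ne_zero.mpr h2)
  have e10 : N 1 0 = 0 := by
    have h := e 1 0
    rw [v0, v1] at h
    have h' : N 1 0 * (ω - 1) = 0 := by linear_combination -h
    exact (mul_eq_zero.mp h').resolve_right (sub_ne_zero.mpr hω1)
  have e12 : N 1 2 = 0 := by
    have h := e 1 2
    rw [v1, v2] at h
    have h' : N 1 2 * (ω ^ 2 - ω) = 0 := by linear_combination h
    exact (mul_eq_zero.mp h').resolve_right (sub_ne_zero.mpr h12)
  have e20 : N 2 0 = 0 := by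
    have h := e 2 0
    rw [v0, v2] at h
    have h' : N 2 0 * (ω ^ 2 - 1) = 0 := by linear_combination -h
    exact (mul_eq_zero.mp h').resolve_right (sub_ne_zero.mpr h2)
  have e21 : N 2 1 = 0 := by
    have h := e 2 1
    rw [v1, v2] at h
    have h' : N 2 1 * (ω ^ 2 - ω) = 0 := by linear_combination -h
    exact (mul_eq_zero.mp h').resolve_right (sub_ne_zero.mpr h12)
  have b02 : N 0 0 = N 2 2 := by
    have h := congrFun (congrFun hB 0) 2
    simp [matB, Matrix.mul_apply, Fin.sum_univ_three] at h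
    exact h
  have b10 : N 1 1 = N 0 0 := by
    have h := congrFun (congrFun hB 1) 0
    simp [matB, Matrix.mul_apply, Fin.sum_univ_three] at h
    exact h
  refine ⟨N 0 0, ?_⟩
  ext i j
  fin_cases i <;> fin_cases j <;>
    simp [e01, e02, e10, e12, e20, e21, ← b02, b10]

/-- the `GL₃`-element with matrix `A_ω` -/
noncomputable def unitA (ω : F) (hω3 : ω ^ 3 = 1) : GL (Fin 3) F :=
  Matrix.GeneralLinearGroup.mkOfDetNeZero (matA ω) (by
    rw [matA_eq_diagonal, Matrix.det_diagonal, Fin.prod_univ_three]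
    have v0 : (![1, ω, ω ^ 2] : Fin 3 → F) 0 = 1 := rfl
    have v1 : (![1, ω, ω ^ 2] : Fin 3 → F) 1 = ω := rfl
    have v2 : (![1, ω, ω ^ 2] : Fin 3 → F) 2 = ω ^ 2 := rfl
    rw [v0, v1, v2]
    have : (1 : F) * ω * ω ^ 2 = ω ^ 3 := by ring
    rw [this, hω3]
    exact one_ne_zero)

theorem unitA_coe (ω : F) (hω3 : ω ^ 3 = 1) :
    ((unitA ω hω3 : GL (Fin 3) F) : Matrix (Fin 3) (Fin 3) F) = matA ω := rfl

theorem det_matB : (matB : Matrix (Fin 3) (Fin 3) F).det = 1 := by
  rw [Matrix.det_fin_three]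
  simp [matB]

/-- the `GL₃`-element with matrix `B` -/
noncomputable def unitB : GL (Fin 3) F :=
  Matrix.GeneralLinearGroup.mkOfDetNeZero (matB : Matrix (Fin 3) (Fin 3) F) (by
    rw [det_matB]
    exact one_ne_zero)

theorem unitB_coe : ((unitB : GL (Fin 3) F) : Matrix (Fin 3) (Fin 3) F) = matB := rfl

/-- the scalar `GL₃`-element `ω • 1` -/
noncomputable def unitW (ω : F) (hω0 : ω ≠ 0) : GL (Fin 3) F :=
  Matrix.GeneralLinearGroup.mkOfDetNeZero (ω • (1 : Matrix (Fin 3) (Fin 3) F)) (by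
    rw [Matrix.det_smul, Matrix.det_one, mul_one]
    exact pow_ne_zero _ hω0)

theorem unitW_coe (ω : F) (hω0 : ω ≠ 0) :
    ((unitW ω hω0 : GL (Fin 3) F) : Matrix (Fin 3) (Fin 3) F) = ω • 1 := rfl

end

theorem pkgCent : PkgCent.{u} := by
  intro F _ R h ω hStd hcard y hy r hr hr5 hz
  obtain ⟨z, hz⟩ := hz
  obtain ⟨hω1, hω3, hmem⟩ := hStd
  have hω0 : ω ≠ 0 := by
    rintro rfl
    simp at hω3
  have : Finite R := Nat.finite_of_card_ne_zero (by rw [hcard]; norm_num)
  let _ : Fintype R := Fintype.ofFinite R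
  classical
  have hN : ∀ u, u ∈ R → y * u * y⁻¹ ∈ R := by
    intro u hu
    unfold Cfsg.Geo.subgroupNormalizer at hy
    exact (Subgroup.mem_normalizer_iff.mp hy u).mp hu
  -- `y ^ r` is central
  have hcen : ∀ u : GL (Fin 3) F, y ^ r * u = u * y ^ r := by
    intro u
    apply Units.ext
    rw [Units.val_mul, Units.val_mul, hz]
    simp
  obtain ⟨f, hfdef⟩ : ∃ f : Function.End R, ∀ u : R, ((f u : R) : GL (Fin 3) F) = y * u.1 * y⁻¹ :=
    ⟨fun u => ⟨y * u.1 * y⁻¹, hN u.1 u.2⟩, fun u => rfl⟩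
  have hf : ∀ (k : ℕ) (u : R), (((f ^ k) u : R) : GL (Fin 3) F) = y ^ k * u.1 * (y ^ k)⁻¹ := by
    intro k
    induction k with
    | zero =>
      intro u
      rw [pow_zero, pow_zero]
      show (u : GL (Fin 3) F) = 1 * u.1 * 1⁻¹
      group
    | succ k ih =>
      intro u
      rw [pow_succ']
      show ((f ((f ^ k) u) : R) : GL (Fin 3) F) = _
      rw [hfdef, ih, pow_succ']
      group
  have hfr : f ^ r ^ 1 = 1 := by
    rw [pow_one]
    funext u
    apply Subtype.ext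
    rw [hf, hcen]
    show (u : GL (Fin 3) F) * y ^ r * (y ^ r)⁻¹ = u.1
    group
  have : Fact r.Prime := ⟨hr⟩
  have hmod := Equiv.Perm.card_fixedPoints_modEq hfr
  -- the centralizer of `y` in `R`
  obtain ⟨C, hC⟩ : ∃ C : Subgroup R, C = (Subgroup.centralizer {y}).subgroupOf R := ⟨_, rfl⟩
  have hmemC : ∀ u : R, u ∈ C ↔ y * u.1 = u.1 * y := by
    intro u
    rw [hC, Subgroup.mem_subgroupOf, Subgroup.mem_centralizer_iff]
    constructor
    · intro h
      exact h y (Set.mem_singleton y)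
    · intro h a ha
      rw [Set.mem_singleton_iff] at ha
      rw [ha]
      exact h
  have hfix : Function.fixedPoints f = (C : Set R) := by
    ext u
    rw [SetLike.mem_coe, hmemC]
    show f u = u ↔ _
    constructor
    · intro hu
      have h1 := congrArg Subtype.val hu
      rw [hfdef] at h1
      exact mul_inv_eq_iff_eq_mul.mp h1
    · intro hu
      apply Subtype.ext
      rw [hfdef]
      exact mul_inv_eq_iff_eq_mul.mpr hu
  have hcardfix : Nat.card (Function.fixedPoints f) = Nat.card C := by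
    rw [hfix]
    rfl
  rw [Fintype.card_eq_nat_card, Fintype.card_eq_nat_card, hcardfix, hcard] at hmod
  have hCdvd : Nat.card C ∣ 27 := by
    rw [← hcard]
    exact Subgroup.card_subgroup_dvd_card C
  -- elements of `R`
  have hconj : ∀ m : GL (Fin 3) F, h⁻¹ * (h * m * h⁻¹) * h = m := by
    intro m
    group
  have hWR : h * unitW ω hω0 * h⁻¹ ∈ R := by
    rw [hmem]
    refine ⟨0, 0, 1, ?_⟩
    rw [hconj, unitW_coe]
    simp
  have hAR : h * unitA ω hω3 * h⁻¹ ∈ R := by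
    rw [hmem]
    refine ⟨1, 0, 0, ?_⟩
    rw [hconj, unitA_coe]
    simp
  have hBR : h * unitB * h⁻¹ ∈ R := by
    rw [hmem]
    refine ⟨0, 1, 0, ?_⟩
    rw [hconj, unitB_coe]
    simp
  have hWcen : ∀ u : GL (Fin 3) F, unitW ω hω0 * u = u * unitW ω hω0 := by
    intro u
    apply Units.ext
    rw [Units.val_mul, Units.val_mul, unitW_coe]
    simp
  have hC1 : Nat.card C ≠ 1 := by
    intro hc
    have hbot := Subgroup.eq_bot_of_card_eq C hc
    have hw : (⟨h * unitW ω hω0 * h⁻¹, hWR⟩ : R) ∈ C := by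
      rw [hmemC]
      show y * (h * unitW ω hω0 * h⁻¹) = (h * unitW ω hω0 * h⁻¹) * y
      have e1 : h * unitW ω hω0 * h⁻¹ = unitW ω hω0 := by
        rw [← hWcen h]
        group
      rw [e1, hWcen y]
    rw [hbot, Subgroup.mem_bot] at hw
    have hw' : h * unitW ω hω0 * h⁻¹ = 1 := congrArg Subtype.val hw
    have hw'' : unitW ω hω0 = 1 := by
      have := hconj (unitW ω hω0)
      rw [hw'] at this
      rw [← this]
      group
    have hmat : ω • (1 : Matrix (Fin 3) (Fin 3) F) = 1 := by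
      rw [← unitW_coe ω hω0, hw'', Units.val_one]
    have h00 : (ω • (1 : Matrix (Fin 3) (Fin 3) F)) 0 0 = (1 : Matrix (Fin 3) (Fin 3) F) 0 0 := by
      rw [hmat]
    rw [Matrix.smul_apply, Matrix.one_apply_eq, smul_eq_mul, mul_one] at h00
    exact hω1 h00
  have hC27 : Nat.card C = 27 := x27_fix_arith hr hr5 hCdvd hC1 hmod
  have hCtop : C = ⊤ := Subgroup.eq_top_of_card_eq C (by rw [hC27, hcard])
  have hyA : y * (h * unitA ω hω3 * h⁻¹) = (h * unitA ω hω3 * h⁻¹) * y :=
    (hmemC ⟨_, hAR⟩).mp (by rw [hCtop]; exact Subgroup.mem_top _)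
  have hyB : y * (h * unitB * h⁻¹) = (h * unitB * h⁻¹) * y :=
    (hmemC ⟨_, hBR⟩).mp (by rw [hCtop]; exact Subgroup.mem_top _)
  -- pass to `N := h⁻¹ * y * h`
  have hNA : (h⁻¹ * y * h) * unitA ω hω3 = unitA ω hω3 * (h⁻¹ * y * h) := by
    have e1 : (h⁻¹ * y * h) * unitA ω hω3 = h⁻¹ * (y * (h * unitA ω hω3 * h⁻¹)) * h := by group
    rw [e1, hyA]
    group
  have hNB : (h⁻¹ * y * h) * unitB = unitB * (h⁻¹ * y * h) := by
    have e1 : (h⁻¹ * y * h) * unitB = h⁻¹ * (y * (h * unitB * h⁻¹)) * h := by group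
    rw [e1, hyB]
    group
  obtain ⟨N, hNdef⟩ : ∃ N : Matrix (Fin 3) (Fin 3) F,
      N = ((h⁻¹ * y * h : GL (Fin 3) F) : Matrix (Fin 3) (Fin 3) F) := ⟨_, rfl⟩
  have hNA' : N * matA ω = matA ω * N := by
    rw [hNdef, ← unitA_coe ω hω3, ← Units.val_mul, ← Units.val_mul, hNA]
  have hNB' : N * matB = matB * N := by
    rw [hNdef, ← unitB_coe (F := F), ← Units.val_mul, ← Units.val_mul, hNB]
  obtain ⟨c, hc⟩ := scalar_of_comm_AB hω1 hω3 N hNA' hNB'
  refine ⟨c, ?_⟩
  have hy'' : (y : Matrix (Fin 3) (Fin 3) F)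
      = (h : Matrix (Fin 3) (Fin 3) F) * N * ((h⁻¹ : GL (Fin 3) F) : Matrix (Fin 3) (Fin 3) F) := by
    rw [hNdef, ← Units.val_mul, ← Units.val_mul]
    congr 1
    group
  rw [hy'', hc, Matrix.mul_smul, Matrix.smul_mul, Matrix.mul_one, ← Units.val_mul,
    mul_inv_cancel, Units.val_one]

end Cfsg.Agent.Lib.Helper42.X27
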