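import Mathlib
import Cfsg.Agent.Lib.Helper48.X27.Defs
import Cfsg.Agent.Lib.Helper40.Diag

/-!
# Project X27 (S5998), package [X27-ORD3DIAG]

A non-scalar `x ∈ SL₃(F)` with `x³` scalar is `GL₃`-conjugate to a scalar multiple of
`A_ω`, `D_ω` or `D_ω²` (when `F` contains a cube root of the primitive cube root of unity `ω`).
-/

set_option autoImplicit false

open scoped MatrixGroups

namespace Cfsg.Agent.Lib.Helper42.X27

open Cfsg.Agent.Lib.Helper48.X27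

universe u

section
variable {F : Type u} [Field F]

omit [Field F] in
theorem card_fibre3 [DecidableEq F] (d : Fin 3 → F) (ζ : F) :
    Fintype.card {i // d i = ζ} =
      (if d 0 = ζ then 1 else 0) + (if d 1 = ζ then 1 else 0) + (if d 2 = ζ then 1 else 0) := by
  rw [Fintype.card_subtype, Finset.card_filter, Fin.sum_univ_three]

theorem cube_root_quad {ω : F} (hω1 : ω ≠ 1) (hω3 : ω ^ 3 = 1) : ω ^ 2 + ω + 1 = 0 := by
  have h : (ω - 1) * (ω ^ 2 + ω + 1) = 0 := by linear_combination hω3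
  exact (mul_eq_zero.mp h).resolve_left (sub_ne_zero.mpr hω1)

theorem cube_root_ne_zero {ω : F} (hω3 : ω ^ 3 = 1) : ω ≠ 0 := by
  rintro rfl
  simp at hω3

theorem cube_root_sq_ne_one {ω : F} (hω1 : ω ≠ 1) (hω3 : ω ^ 3 = 1) : ω ^ 2 ≠ 1 := by
  intro h
  apply hω1
  have : ω ^ 3 = ω := by rw [pow_succ, h, one_mul]
  rw [← this, hω3]

theorem cube_root_sq_ne_self {ω : F} (hω1 : ω ≠ 1) (hω3 : ω ^ 3 = 1) : ω ^ 2 ≠ ω := by
  intro h
  apply hω1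
  have : ω * ω = ω * 1 := by rw [mul_one, ← sq, h]
  exact mul_left_cancel₀ (cube_root_ne_zero hω3) this

open Polynomial in
theorem prod_roots_eq [DecidableEq F] {ω : F} (hω1 : ω ≠ 1) (hω3 : ω ^ 3 = 1) :
    ∏ ζ ∈ ({1, ω, ω ^ 2} : Finset F), (X - C ζ) = (X ^ 3 - 1 : F[X]) := by
  have hq := cube_root_quad hω1 hω3
  have h2 := cube_root_sq_ne_one hω1 hω3
  have h12 := cube_root_sq_ne_self hω1 hω3
  rw [Finset.prod_insert (by simp [Ne.symm hω1, Ne.symm h2]),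
    Finset.prod_insert (by simp [Ne.symm h12]), Finset.prod_singleton]
  have hC : (C ω : F[X]) ^ 2 + C ω + 1 = 0 := by
    rw [← C_pow, ← C_add, ← C_1, ← C_add, hq, C_0]
  rw [C_1, C_pow]
  linear_combination (-X ^ 2 + C ω * X - (C ω - 1)) * hC

theorem aeval_cube [DecidableEq F] {ω : F} (hω1 : ω ≠ 1) (hω3 : ω ^ 3 = 1)
    (M : Matrix (Fin 3) (Fin 3) F) (hM : M ^ 3 = 1) :
    Polynomial.aeval M (∏ ζ ∈ ({1, ω, ω ^ 2} : Finset F), (Polynomial.X - Polynomial.C ζ)) = 0 := by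
  rw [prod_roots_eq hω1 hω3]
  simp only [map_sub, map_pow, Polynomial.aeval_X, map_one]
  rw [hM, sub_self]

theorem similar_diag [DecidableEq F] {ω : F} (hω1 : ω ≠ 1) (hω3 : ω ^ 3 = 1)
    (M : Matrix (Fin 3) (Fin 3) F) (hM : M ^ 3 = 1) (d : Fin 3 → F) (hd : ∀ i, d i ^ 3 = 1)
    (hk : ∀ ζ ∈ ({1, ω, ω ^ 2} : Finset F),
      3 - (M - ζ • (1 : Matrix (Fin 3) (Fin 3) F)).rank = Fintype.card {i // d i = ζ}) :
    ∃ P : GL (Fin 3) F, (P : Matrix (Fin 3) (Fin 3) F) * M = Matrix.diagonal d * P := by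
  apply Cfsg.Agent.Lib.Helper40.Diag.similar_of_rank_eq M (Matrix.diagonal d)
    ({1, ω, ω ^ 2} : Finset F)
  · exact aeval_cube hω1 hω3 M hM
  · apply aeval_cube hω1 hω3
    rw [Matrix.diagonal_pow]
    have : d ^ 3 = 1 := funext hd
    rw [this]
    exact Matrix.diagonal_one
  · intro ζ hζ
    have h1 := Cfsg.Agent.Lib.Helper40.Diag.rank_diagonal_sub d ζ
    have h2 := hk ζ hζ
    have h3 : (M - ζ • (1 : Matrix (Fin 3) (Fin 3) F)).rank ≤ 3 := by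
      have := Matrix.rank_le_width (M - ζ • (1 : Matrix (Fin 3) (Fin 3) F))
      simpa using this
    omega

theorem diag_eq_A {ω : F} (c d1 d2 : F) (h1 : d1 = c * ω) (h2 : d2 = c * ω ^ 2) :
    Matrix.diagonal ![c, d1, d2] = c • matA ω := by
  subst h1 h2
  ext i j
  fin_cases i <;> fin_cases j <;> simp [matA]

theorem diag_eq_D {ω : F} (c d2 : F) (h2 : d2 = c * ω) :
    Matrix.diagonal ![c, c, d2] = c • matD ω := by
  subst h2
  ext i j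
  fin_cases i <;> fin_cases j <;> simp [matD]

theorem diag_eq_DD {ω : F} (c d2 : F) (h2 : d2 = c * ω ^ 2) :
    Matrix.diagonal ![c, c, d2] = c • (matD ω * matD ω) := by
  subst h2
  ext i j
  fin_cases i <;> fin_cases j <;> simp [matD, sq]

theorem diag_eq_scalar (c : F) :
    Matrix.diagonal ![c, c, c] = c • (1 : Matrix (Fin 3) (Fin 3) F) := by
  ext i j
  fin_cases i <;> fin_cases j <;> simp

omit [Field F] in
theorem triple_cases (k0 k1 k2 : ℕ) (h : k0 + (k1 + k2) = 3) :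
    (k0 = 1 ∧ k1 = 1 ∧ k2 = 1) ∨ (k0 = 2 ∧ k1 = 1 ∧ k2 = 0) ∨
      (k0 = 2 ∧ k1 = 0 ∧ k2 = 1) ∨ (k0 = 1 ∧ k1 = 2 ∧ k2 = 0) ∨ (k0 = 0 ∧ k1 = 2 ∧ k2 = 1) ∨
      (k0 = 1 ∧ k1 = 0 ∧ k2 = 2) ∨ (k0 = 0 ∧ k1 = 1 ∧ k2 = 2) ∨ (k0 = 3 ∧ k1 = 0 ∧ k2 = 0) ∨
      (k0 = 0 ∧ k1 = 3 ∧ k2 = 0) ∨ (k0 = 0 ∧ k1 = 0 ∧ k2 = 3) := by
  have h0 : k0 ≤ 3 := by omega
  have h1 : k1 ≤ 3 := by omega
  have h2 : k2 ≤ 3 := by omega
  interval_cases k0 <;> interval_cases k1 <;> interval_cases k2 <;>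
    first | (exfalso; omega) | decide

/-- a non-scalar matrix with `M ^ 3 = 1` is similar to a scalar multiple of `A_ω`, `D_ω`
or `D_ω²`. -/
theorem diag3 {ω : F} (hω1 : ω ≠ 1) (hω3 : ω ^ 3 = 1) (M : Matrix (Fin 3) (Fin 3) F)
    (hM : M ^ 3 = 1) (hns : ∀ z : F, M ≠ z • 1) :
    ∃ (P : GL (Fin 3) F) (c : F),
      (P : Matrix (Fin 3) (Fin 3) F) * M = (c • matA ω) * P ∨
      (P : Matrix (Fin 3) (Fin 3) F) * M = (c • matD ω) * P ∨
      (P : Matrix (Fin 3) (Fin 3) F) * M = (c • (matD ω * matD ω)) * P := by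
  classical
  have hq := cube_root_quad hω1 hω3
  have hω0 := cube_root_ne_zero hω3
  have h2 := cube_root_sq_ne_one hω1 hω3
  have h12 := cube_root_sq_ne_self hω1 hω3
  have hω1' : (1 : F) ≠ ω := Ne.symm hω1
  have h2' : (1 : F) ≠ ω ^ 2 := Ne.symm h2
  have h12' : ω ≠ ω ^ 2 := Ne.symm h12
  have hsum := Cfsg.Agent.Lib.Helper40.Diag.sum_sub_rank M ({1, ω, ω ^ 2} : Finset F)
    (aeval_cube hω1 hω3 M hM)
  rw [Finset.sum_insert (by simp [Ne.symm hω1, Ne.symm h2]),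
    Finset.sum_insert (by simp [Ne.symm h12]), Finset.sum_singleton] at hsum
  obtain ⟨k0, hk0⟩ : ∃ k, k = 3 - (M - (1 : F) • (1 : Matrix (Fin 3) (Fin 3) F)).rank :=
    ⟨_, rfl⟩
  obtain ⟨k1, hk1⟩ : ∃ k, k = 3 - (M - ω • (1 : Matrix (Fin 3) (Fin 3) F)).rank := ⟨_, rfl⟩
  obtain ⟨k2, hk2⟩ : ∃ k, k = 3 - (M - (ω ^ 2) • (1 : Matrix (Fin 3) (Fin 3) F)).rank :=
    ⟨_, rfl⟩
  rw [← hk0, ← hk1, ← hk2] at hsum
  have key : ∀ d0 d1 d2 : F, d0 ^ 3 = 1 → d1 ^ 3 = 1 → d2 ^ 3 = 1 →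
      (if d0 = 1 then 1 else 0) + (if d1 = 1 then 1 else 0) + (if d2 = 1 then 1 else 0) = k0 →
      (if d0 = ω then 1 else 0) + (if d1 = ω then 1 else 0) + (if d2 = ω then 1 else 0) = k1 →
      (if d0 = ω ^ 2 then 1 else 0) + (if d1 = ω ^ 2 then 1 else 0)
        + (if d2 = ω ^ 2 then 1 else 0) = k2 →
      ∃ P : GL (Fin 3) F,
        (P : Matrix (Fin 3) (Fin 3) F) * M = Matrix.diagonal ![d0, d1, d2] * P := by
    intro d0 d1 d2 hd0 hd1 hd2 h0 h1 h2''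
    apply similar_diag hω1 hω3 M hM ![d0, d1, d2]
    · intro i
      fin_cases i
      · exact hd0
      · exact hd1
      · exact hd2
    · intro ζ hζ
      have hcf := card_fibre3 ![d0, d1, d2] ζ
      rw [hcf]
      show _ = (if d0 = ζ then 1 else 0) + (if d1 = ζ then 1 else 0) + (if d2 = ζ then 1 else 0)
      simp only [Finset.mem_insert, Finset.mem_singleton] at hζ
      rcases hζ with rfl | rfl | rfl
      · rw [h0, hk0]
      · rw [h1, hk1]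
      · rw [h2'', hk2]
  have hω4 : ω ^ 2 * ω ^ 2 = ω := by
    have : ω ^ 2 * ω ^ 2 = ω ^ 3 * ω := by ring
    rw [this, hω3, one_mul]
  have hω23 : (ω ^ 2) ^ 3 = 1 := by
    rw [← pow_mul, mul_comm, pow_mul, hω3, one_pow]
  have hscal : ∀ c : F, ∀ P : GL (Fin 3) F,
      (P : Matrix (Fin 3) (Fin 3) F) * M = Matrix.diagonal ![c, c, c] * P → False := by
    intro c P hP
    apply hns c
    rw [diag_eq_scalar, Matrix.smul_mul, Matrix.one_mul] at hP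
    have h3 : ((P⁻¹ : GL (Fin 3) F) : Matrix (Fin 3) (Fin 3) F) * ((P : Matrix (Fin 3) (Fin 3) F) * M)
        = M := by
      rw [← Matrix.mul_assoc, ← Units.val_mul, inv_mul_cancel, Units.val_one, Matrix.one_mul]
    rw [← h3, hP, Matrix.mul_smul, ← Units.val_mul, inv_mul_cancel, Units.val_one]
  have hcases := triple_cases k0 k1 k2 hsum
  rcases hcases with ⟨a0, a1, a2⟩ | ⟨a0, a1, a2⟩ | ⟨a0, a1, a2⟩ | ⟨a0, a1, a2⟩ | ⟨a0, a1, a2⟩ |
    ⟨a0, a1, a2⟩ | ⟨a0, a1, a2⟩ | ⟨a0, a1, a2⟩ | ⟨a0, a1, a2⟩ | ⟨a0, a1, a2⟩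
  · -- (1,1,1): diag(1, ω, ω²)
    obtain ⟨P, hP⟩ := key 1 ω (ω ^ 2) (one_pow 3) hω3 hω23
      (by rw [a0]; simp [hω1, h2])
      (by rw [a1]; simp [hω1', h12])
      (by rw [a2]; simp [h2', h12'])
    refine ⟨P, 1, Or.inl ?_⟩
    rw [← diag_eq_A 1 ω (ω ^ 2) (one_mul _).symm (one_mul _).symm]
    exact hP
  · -- (2,1,0): diag(1, 1, ω)
    obtain ⟨P, hP⟩ := key 1 1 ω (one_pow 3) (one_pow 3) hω3
      (by rw [a0]; simp [hω1, h2])
      (by rw [a1]; simp [hω1', h12])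
      (by rw [a2]; simp [h2', h12'])
    refine ⟨P, 1, Or.inr (Or.inl ?_)⟩
    rw [← diag_eq_D 1 ω (one_mul _).symm]
    exact hP
  · -- (2,0,1): diag(1, 1, ω²)
    obtain ⟨P, hP⟩ := key 1 1 (ω ^ 2) (one_pow 3) (one_pow 3) hω23
      (by rw [a0]; simp [hω1, h2])
      (by rw [a1]; simp [hω1', h12])
      (by rw [a2]; simp [h2', h12'])
    refine ⟨P, 1, Or.inr (Or.inr ?_)⟩
    rw [← diag_eq_DD 1 (ω ^ 2) (one_mul _).symm]
    exact hP
  · -- (1,2,0): diag(ω, ω, 1) = ω • D²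
    obtain ⟨P, hP⟩ := key ω ω 1 hω3 hω3 (one_pow 3)
      (by rw [a0]; simp [hω1, h2])
      (by rw [a1]; simp [hω1', h12])
      (by rw [a2]; simp [h2', h12'])
    refine ⟨P, ω, Or.inr (Or.inr ?_)⟩
    rw [← diag_eq_DD ω 1 (by rw [← pow_succ', hω3])]
    exact hP
  · -- (0,2,1): diag(ω, ω, ω²) = ω • D
    obtain ⟨P, hP⟩ := key ω ω (ω ^ 2) hω3 hω3 hω23
      (by rw [a0]; simp [hω1, h2])
      (by rw [a1]; simp [hω1', h12])
      (by rw [a2]; simp [h2', h12'])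
    refine ⟨P, ω, Or.inr (Or.inl ?_)⟩
    rw [← diag_eq_D ω (ω ^ 2) (sq ω)]
    exact hP
  · -- (1,0,2): diag(ω², ω², 1) = ω² • D
    obtain ⟨P, hP⟩ := key (ω ^ 2) (ω ^ 2) 1 hω23 hω23 (one_pow 3)
      (by rw [a0]; simp [hω1, h2])
      (by rw [a1]; simp [hω1', h12])
      (by rw [a2]; simp [h2', h12'])
    refine ⟨P, ω ^ 2, Or.inr (Or.inl ?_)⟩
    rw [← diag_eq_D (ω ^ 2) 1 (by rw [← pow_succ, hω3])]
    exact hP
  · -- (0,1,2): diag(ω², ω², ω) = ω² • D²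
    obtain ⟨P, hP⟩ := key (ω ^ 2) (ω ^ 2) ω hω23 hω23 hω3
      (by rw [a0]; simp [hω1, h2])
      (by rw [a1]; simp [hω1', h12])
      (by rw [a2]; simp [h2', h12'])
    refine ⟨P, ω ^ 2, Or.inr (Or.inr ?_)⟩
    rw [← diag_eq_DD (ω ^ 2) ω hω4.symm]
    exact hP
  · obtain ⟨P, hP⟩ := key 1 1 1 (one_pow 3) (one_pow 3) (one_pow 3)
      (by rw [a0]; simp [hω1, h2])
      (by rw [a1]; simp [hω1', h12])
      (by rw [a2]; simp [h2', h12'])
    exact (hscal 1 P hP).elim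
  · obtain ⟨P, hP⟩ := key ω ω ω hω3 hω3 hω3
      (by rw [a0]; simp [hω1, h2])
      (by rw [a1]; simp [hω1', h12])
      (by rw [a2]; simp [h2', h12'])
    exact (hscal ω P hP).elim
  · obtain ⟨P, hP⟩ := key (ω ^ 2) (ω ^ 2) (ω ^ 2) hω23 hω23 hω23
      (by rw [a0]; simp [hω1, h2])
      (by rw [a1]; simp [hω1', h12])
      (by rw [a2]; simp [h2', h12'])
    exact (hscal (ω ^ 2) P hP).elim

theorem det_eq_one_of_mem_SL3 (x : GL (Fin 3) F)
    (hx : x ∈ Cfsg.Geo.specialLinear (Fin 3) F) : (x : Matrix (Fin 3) (Fin 3) F).det = 1 := by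
  have h : Matrix.GeneralLinearGroup.det x = 1 := hx
  have h' := congrArg Units.val h
  simpa using h'

end

theorem pkgOrd3Diag : PkgOrd3Diag.{u} := by
  intro F _ ω ζ hω1 hω3 hζ x hxSL hx3 hns
  obtain ⟨z, hz⟩ := hx3
  have hq := cube_root_quad hω1 hω3
  have hdet := det_eq_one_of_mem_SL3 x hxSL
  obtain ⟨X, hX⟩ : ∃ X : Matrix (Fin 3) (Fin 3) F, X = (x : Matrix (Fin 3) (Fin 3) F) := ⟨_, rfl⟩
  rw [← hX] at hdet hns
  have hX3 : X ^ 3 = z • 1 := by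
    rw [hX, ← Units.val_pow_eq_pow_val, hz]
  have hz3 : z ^ 3 = 1 := by
    have h1 : (X ^ 3).det = 1 := by rw [Matrix.det_pow, hdet, one_pow]
    rw [hX3, Matrix.det_smul, Matrix.det_one, mul_one, Fintype.card_fin] at h1
    exact h1
  have hz0 : z ≠ 0 := cube_root_ne_zero hz3
  -- a cube root `s` of `z`
  obtain ⟨s, hs⟩ : ∃ s : F, s ^ 3 = z := by
    have hfac : (z - 1) * ((z - ω) * (z - ω ^ 2)) = 0 := by
      linear_combination hz3 + (-z ^ 2 + ω * z - (ω - 1)) * hq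
    rcases mul_eq_zero.mp hfac with h | h
    · exact ⟨1, by rw [one_pow]; exact (sub_eq_zero.mp h).symm⟩
    · rcases mul_eq_zero.mp h with h | h
      · exact ⟨ζ, by rw [hζ]; exact (sub_eq_zero.mp h).symm⟩
      · exact ⟨ζ ^ 2, by rw [← pow_mul, mul_comm, pow_mul, hζ]; exact (sub_eq_zero.mp h).symm⟩
  have hs0 : s ≠ 0 := by
    rintro rfl
    apply hz0
    rw [← hs]
    simp
  -- `M := s⁻¹ • X` has `M ^ 3 = 1` and is not scalar
  have hM3 : (s⁻¹ • X) ^ 3 = 1 := by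
    rw [smul_pow, hX3, smul_smul, inv_pow, hs, inv_mul_cancel₀ hz0, one_smul]
  have hMns : ∀ c : F, s⁻¹ • X ≠ c • 1 := by
    intro c hc
    apply hns (s * c)
    have : X = s • (s⁻¹ • X) := by rw [smul_smul, mul_inv_cancel₀ hs0, one_smul]
    rw [this, hc, smul_smul]
  obtain ⟨P, c, hP⟩ := diag3 hω1 hω3 (s⁻¹ • X) hM3 hMns
  -- conclusion
  have hfin : ∀ T : Matrix (Fin 3) (Fin 3) F,
      (P : Matrix (Fin 3) (Fin 3) F) * (s⁻¹ • X) = (c • T) * P →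
      (((P⁻¹)⁻¹ * x * P⁻¹ : GL (Fin 3) F) : Matrix (Fin 3) (Fin 3) F) = (s * c) • T := by
    intro T hT
    rw [inv_inv, Units.val_mul, Units.val_mul, ← hX]
    have h1 : (P : Matrix (Fin 3) (Fin 3) F) * X = ((s * c) • T) * P := by
      have : X = s • (s⁻¹ • X) := by rw [smul_smul, mul_inv_cancel₀ hs0, one_smul]
      rw [this, Matrix.mul_smul, hT, Matrix.smul_mul, Matrix.smul_mul, smul_smul]
    rw [h1, Matrix.mul_assoc, ← Units.val_mul, mul_inv_cancel, Units.val_one, Matrix.mul_one]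
  refine ⟨P⁻¹, s * c, ?_⟩
  rcases hP with h | h | h
  · exact Or.inl (hfin _ h)
  · exact Or.inr (Or.inl (hfin _ h))
  · exact Or.inr (Or.inr (hfin _ h))

end Cfsg.Agent.Lib.Helper42.X27
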